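import Mathlib
import Cfsg.Prelude.Def_OddOrderLocal
import Cfsg.Statements.S1351
import Cfsg.Statements.S1352
import Cfsg.Statements.S1353
import Cfsg.Statements.S1354
import Cfsg.Statements.S1378
import Cfsg.Statements.S1430
import Cfsg.Statements.S1431
import Cfsg.Statements.S1432
import Cfsg.Statements.S1434
import Cfsg.Agent.Lib.Helper20.BG.ZHat
import Cfsg.Agent.Lib.Helper20.BG.S1370Core
import Cfsg.Agent.Lib.Helper20.Tame
import Cfsg.Agent.Lib.Helper23.Compl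
import Cfsg.Agent.Lib.Helper27.BG.SigmaBasic
import Cfsg.Agent.Lib.Helper27.BG.S1433Core
import Cfsg.Agent.Lib.Helper32.Tight
import Cfsg.Agent.Lib.Helper35.BG.Basic
import Cfsg.Agent.Lib.Helper67.BG.Basics
import Cfsg.Agent.Lib.Helper67.BG.HallUtil
import Cfsg.Agent.Lib.Helper85.BG.Conj

/-!
# Bender–Glauberman 14.7 (a)–(e) given the partner `M*` (statement S1434), conditional core

`κ(M) = τ₁(M)`, `K*` is a Hall `σ(M)`-subgroup of `M*`, the centralizers of `x`, `y`, `x y`,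
`Ẑ ∩ M^g = ∅` and the count of the conjugates of `Ẑ`.  Hypotheses: the statements S1351–S1354,
S1378, S1430–S1432 for the same group.
-/

set_option autoImplicit false

namespace Cfsg.Agent.Lib.Helper75.BG

open Cfsg

open scoped commutatorElement

universe u

/-- Counting the union of the conjugates of a set `S` all of whose fusion happens inside a subgroup
`Z` that acts trivially on `S`. -/
theorem card_conj_union75 {G : Type*} [Group G] [Finite G] (Z : Subgroup G) (S : Set G)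
    (hfix : ∀ n ∈ Z, ∀ z ∈ S, n * z * n⁻¹ = z)
    (hN : ∀ g : G, ∀ z ∈ S, g * z * g⁻¹ ∈ S → g ∈ Z) :
    Nat.card Z * Set.ncard {a : G | ∃ g : G, ∃ z ∈ S, a = g * z * g⁻¹} = S.ncard * Nat.card G := by
  classical
  set C : Set G := {a : G | ∃ g : G, ∃ z ∈ S, a = g * z * g⁻¹} with hC
  have hrep : ∀ a : C, ∃ p : G × S, (a : G) = p.1 * (p.2 : G) * p.1⁻¹ := by
    rintro ⟨a, g, z, hz, rfl⟩
    exact ⟨(g, ⟨z, hz⟩), rfl⟩
  choose rep hrep using hrep
  let φ : C × Z → G × S := fun q => ((rep q.1).1 * (q.2 : G), (rep q.1).2)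
  have hconj : ∀ (a : C) (n : Z),
      (a : G) = ((rep a).1 * (n : G)) * ((rep a).2 : G) * ((rep a).1 * (n : G))⁻¹ := by
    intro a n
    have h1 := hfix n n.2 _ (rep a).2.2
    calc (a : G) = (rep a).1 * ((rep a).2 : G) * (rep a).1⁻¹ := hrep a
      _ = (rep a).1 * ((n : G) * ((rep a).2 : G) * (n : G)⁻¹) * (rep a).1⁻¹ := by rw [h1]
      _ = _ := by group
  have hinj : Function.Injective φ := by
    rintro ⟨a, n⟩ ⟨b, m⟩ h
    simp only [φ, Prod.mk.injEq] at h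
    obtain ⟨h1, h2⟩ := h
    have hab : a = b := by
      apply Subtype.ext
      rw [hconj a n, hconj b m, h1, h2]
    subst hab
    have hnm : (n : G) = m := mul_left_cancel h1
    have : n = m := Subtype.ext hnm
    rw [this]
  have hsurj : Function.Surjective φ := by
    rintro ⟨g, z⟩
    have haC : g * (z : G) * g⁻¹ ∈ C := ⟨g, z, z.2, rfl⟩
    have ha := hrep ⟨_, haC⟩
    have hkey : (rep ⟨_, haC⟩).1⁻¹ * g * (z : G) * ((rep ⟨_, haC⟩).1⁻¹ * g)⁻¹ =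
        ((rep ⟨_, haC⟩).2 : G) := by
      calc (rep ⟨_, haC⟩).1⁻¹ * g * (z : G) * ((rep ⟨_, haC⟩).1⁻¹ * g)⁻¹
          = (rep ⟨_, haC⟩).1⁻¹ * (g * (z : G) * g⁻¹) * (rep ⟨_, haC⟩).1 := by group
        _ = (rep ⟨_, haC⟩).1⁻¹ * ((rep ⟨_, haC⟩).1 * ((rep ⟨_, haC⟩).2 : G) *
              (rep ⟨_, haC⟩).1⁻¹) * (rep ⟨_, haC⟩).1 := by rw [← ha]
        _ = _ := by group
    have hn : (rep ⟨_, haC⟩).1⁻¹ * g ∈ Z := by
      apply hN _ z z.2
      rw [hkey]; exact (rep ⟨_, haC⟩).2.2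
    have hz : ((rep ⟨_, haC⟩).2 : G) = z := by
      rw [← hkey]; exact hfix _ hn z z.2
    refine ⟨(⟨_, haC⟩, ⟨_, hn⟩), ?_⟩
    apply Prod.ext
    · show (rep ⟨_, haC⟩).1 * ((rep ⟨_, haC⟩).1⁻¹ * g) = g
      group
    · exact Subtype.ext hz
  have hcard := Nat.card_congr (Equiv.ofBijective φ ⟨hinj, hsurj⟩)
  rw [Nat.card_prod, Nat.card_prod, Nat.card_coe_set_eq, Nat.card_coe_set_eq] at hcard
  rw [mul_comm (Nat.card Z), hcard, mul_comm]

/-- The final inequality: `(k - 2)(k* - 2) > 2` for coprime odd `k, k* > 1`. -/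
theorem arith75 (k ks : ℕ) (hk : Odd k) (hks : Odd ks) (hk1 : 1 < k) (hks1 : 1 < ks)
    (hcop : k.Coprime ks) : k * ks < 2 * (k * ks - k - ks + 1) := by
  obtain ⟨a, rfl⟩ := hk
  obtain ⟨b, rfl⟩ := hks
  have hab : a ≠ b := by
    rintro rfl
    have := (Nat.coprime_self _).mp hcop
    omega
  have ha : 1 ≤ a := by omega
  have hb : 1 ≤ b := by omega
  have e : (2 * a + 1) * (2 * b + 1) = 4 * (a * b) + 2 * a + 2 * b + 1 := by ring
  rw [e]
  have h2 : 2 * a + 2 * b + 1 < 4 * (a * b) := by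
    rcases Nat.lt_or_gt_of_ne hab with h | h
    · obtain ⟨a', rfl⟩ : ∃ a', a = a' + 1 := ⟨a - 1, by omega⟩
      obtain ⟨b', rfl⟩ : ∃ b', b = b' + 2 := ⟨b - 2, by omega⟩
      have e2 : (a' + 1) * (b' + 2) = a' * b' + 2 * a' + b' + 2 := by ring
      rw [e2]; omega
    · obtain ⟨a', rfl⟩ : ∃ a', a = a' + 2 := ⟨a - 2, by omega⟩
      obtain ⟨b', rfl⟩ : ∃ b', b = b' + 1 := ⟨b - 1, by omega⟩
      have e2 : (a' + 2) * (b' + 1) = a' * b' + a' + 2 * b' + 2 := by ring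
      rw [e2]; omega
  omega

/-- If `k` normalizes `U ≤ M` and `C_U(k) = 1`, then `U = [U, k] ≤ M'`. -/
theorem le_commutator_of_fpf75 {G : Type*} [Group G] [Finite G] {M U : Subgroup G} (hU : U ≤ M)
    {k : G} (hk : k ∈ M) (hkU : k ∈ Subgroup.normalizer (U : Set G))
    (hC : U ⊓ Subgroup.centralizer ({k} : Set G) = ⊥) : U ≤ ⁅M, M⁆ := by
  have hmem : ∀ u : U, (u : G) * k * (u : G)⁻¹ * k⁻¹ ∈ U := by
    intro u
    have h1 : k * (u : G)⁻¹ * k⁻¹ ∈ U :=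
      (Subgroup.mem_normalizer_iff.mp hkU _).mp (U.inv_mem u.2)
    have : (u : G) * k * (u : G)⁻¹ * k⁻¹ = (u : G) * (k * (u : G)⁻¹ * k⁻¹) := by group
    rw [this]; exact U.mul_mem u.2 h1
  let f : U → U := fun u => ⟨_, hmem u⟩
  have hinj : Function.Injective f := by
    intro u v h
    have h1 : (u : G) * k * (u : G)⁻¹ * k⁻¹ = (v : G) * k * (v : G)⁻¹ * k⁻¹ :=
      congrArg Subtype.val h
    have h3 : (u : G) * k * (u : G)⁻¹ = (v : G) * k * (v : G)⁻¹ := mul_right_cancel h1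
    have h2 : (v : G)⁻¹ * (u : G) ∈ U ⊓ Subgroup.centralizer ({k} : Set G) := by
      refine ⟨U.mul_mem (U.inv_mem v.2) u.2, Subgroup.mem_centralizer_iff.mpr ?_⟩
      intro w hw
      rw [Set.mem_singleton_iff.mp hw]
      calc k * ((v : G)⁻¹ * (u : G)) = (v : G)⁻¹ * ((v : G) * k * (v : G)⁻¹) * (u : G) := by group
        _ = (v : G)⁻¹ * ((u : G) * k * (u : G)⁻¹) * (u : G) := by rw [h3]
        _ = (v : G)⁻¹ * (u : G) * k := by group
    rw [hC, Subgroup.mem_bot] at h2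
    apply Subtype.ext
    calc (u : G) = (v : G) * ((v : G)⁻¹ * (u : G)) := by group
      _ = (v : G) := by rw [h2, mul_one]
  have hsurj := Finite.surjective_of_injective hinj
  intro u hu
  obtain ⟨v, hv⟩ := hsurj ⟨u, hu⟩
  have h1 : (v : G) * k * (v : G)⁻¹ * k⁻¹ = u := congrArg Subtype.val hv
  have : u = ⁅(v : G), k⁆ := by rw [commutatorElement_def]; exact h1.symm
  rw [this]
  exact Subgroup.commutator_mem_commutator (hU v.2) hk

/-- If `M = N K` with `N` normalized by `M` and `K` abelian, then `M' ≤ N`. -/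
theorem commutator_le_of_mul75 {G : Type*} [Group G] {M N K : Subgroup G}
    (hKM : K ≤ M) (hdec : ∀ m ∈ M, ∃ a ∈ N, ∃ b ∈ K, m = a * b)
    (hMN : M ≤ Subgroup.normalizer (N : Set G))
    (hK : ∀ a ∈ K, ∀ b ∈ K, a * b = b * a) : ⁅M, M⁆ ≤ N := by
  rw [Subgroup.commutator_le]
  intro x hx y hy
  obtain ⟨n₁, hn₁, k₁, hk₁, rfl⟩ := hdec x hx
  obtain ⟨n₂, hn₂, k₂, hk₂, rfl⟩ := hdec y hy
  have hc : k₂ * k₁⁻¹ = k₁⁻¹ * k₂ := (hK _ (K.inv_mem hk₁) _ hk₂).symm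
  have e : ⁅n₁ * k₁, n₂ * k₂⁆ = n₁ * (k₁ * n₂ * k₁⁻¹) * (k₂ * n₁⁻¹ * k₂⁻¹) * n₂⁻¹ := by
    rw [commutatorElement_def]
    calc n₁ * k₁ * (n₂ * k₂) * (n₁ * k₁)⁻¹ * (n₂ * k₂)⁻¹
        = n₁ * k₁ * n₂ * (k₂ * k₁⁻¹) * n₁⁻¹ * k₂⁻¹ * n₂⁻¹ := by group
      _ = n₁ * k₁ * n₂ * (k₁⁻¹ * k₂) * n₁⁻¹ * k₂⁻¹ * n₂⁻¹ := by rw [hc]
      _ = _ := by group
  rw [e]
  have h1 : k₁ * n₂ * k₁⁻¹ ∈ N := (Subgroup.mem_normalizer_iff.mp (hMN (hKM hk₁)) _).mp hn₂
  have h2 : k₂ * n₁⁻¹ * k₂⁻¹ ∈ N :=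
    (Subgroup.mem_normalizer_iff.mp (hMN (hKM hk₂)) _).mp (N.inv_mem hn₁)
  exact N.mul_mem (N.mul_mem (N.mul_mem hn₁ h1) h2) (N.inv_mem hn₂)

/-- The join of two abelian subgroups commuting with each other is abelian. -/
theorem sup_comm75 {G : Type*} [Group G] {A B : Subgroup G}
    (hA : ∀ a ∈ A, ∀ b ∈ A, a * b = b * a) (hB : ∀ a ∈ B, ∀ b ∈ B, a * b = b * a)
    (hAB : ∀ a ∈ A, ∀ b ∈ B, a * b = b * a) : ∀ a ∈ A ⊔ B, ∀ b ∈ A ⊔ B, a * b = b * a := by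
  intro a ha b hb
  obtain ⟨a₁, ha₁, a₂, ha₂, rfl⟩ := Cfsg.Agent.Lib.Helper23.mem_sup_of_commute A B hAB ha
  obtain ⟨b₁, hb₁, b₂, hb₂, rfl⟩ := Cfsg.Agent.Lib.Helper23.mem_sup_of_commute A B hAB hb
  have e1 := hA a₁ ha₁ b₁ hb₁
  have e2 := hB a₂ ha₂ b₂ hb₂
  have e3 := hAB b₁ hb₁ a₂ ha₂
  have e4 := hAB a₁ ha₁ b₂ hb₂
  calc a₁ * a₂ * (b₁ * b₂) = a₁ * (a₂ * b₁) * b₂ := by group
    _ = a₁ * (b₁ * a₂) * b₂ := by rw [e3]
    _ = (a₁ * b₁) * (a₂ * b₂) := by group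
    _ = (b₁ * a₁) * (b₂ * a₂) := by rw [e1, e2]
    _ = b₁ * (a₁ * b₂) * a₂ := by group
    _ = b₁ * (b₂ * a₁) * a₂ := by rw [e4]
    _ = b₁ * b₂ * (a₁ * a₂) := by group

/-- S1434 with `K* = M_σ ∩ C_G(K)` abstracted to a variable `Ks`. -/
theorem s1434_aux {G : Type u} [Group G] [Finite G] (hG : Cfsg.IsMinSimpleOddOrder G)
    (h1351 : type_of% (@Cfsg.CfsgFrozen.S1351 G _ _ hG))
    (h1352 : type_of% (@Cfsg.CfsgFrozen.S1352 G _ _ hG))
    (h1353 : type_of% (@Cfsg.CfsgFrozen.S1353 G _ _ hG))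
    (h1354 : type_of% (@Cfsg.CfsgFrozen.S1354 G _ _ hG))
    (h1378 : type_of% (@Cfsg.CfsgFrozen.S1378 G _ _ hG))
    (h1430 : type_of% (@Cfsg.CfsgFrozen.S1430 G _ _ hG))
    (h1431 : type_of% (@Cfsg.CfsgFrozen.S1431 G _ _ hG))
    (h1432 : type_of% (@Cfsg.CfsgFrozen.S1432 G _ _ hG))
    (M : Subgroup G) (hM : IsCoatom M) (K U : Subgroup G) (hKU : IsSigmaDecomposition M K U)
    (hK1 : K ≠ ⊥) (Mstar : Subgroup G) (hMstar : IsCoatom Mstar) (Ks : Subgroup G)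
    (hKs : Ks = sigmaCore M ⊓ Subgroup.centralizer (K : Set G))
    (hKst : K = sigmaCore Mstar ⊓ Subgroup.centralizer (Ks : Set G))
    (hKstH : IsPiHallOf (kappa Mstar) Ks Mstar) :
    kappa M = tau1 M ∧ IsPiHallOf (sigma M) Ks Mstar ∧
      (∀ x ∈ K, x ≠ 1 → ∀ y ∈ Ks, y ≠ 1 →
        M ⊓ Subgroup.centralizer ({x} : Set G) = K ⊔ Ks ∧
        Mstar ⊓ Subgroup.centralizer ({y} : Set G) = K ⊔ Ks ∧
        Subgroup.centralizer ({x * y} : Set G) = K ⊔ Ks) ∧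
      (∀ g : G, g ∉ M → ∀ z ∈ ((↑(K ⊔ Ks) : Set G) \ ((K : Set G) ∪ ↑Ks)),
        z ∉ M.map (MulAut.conj g).toMonoidHom) ∧
      Nat.card K * Nat.card Ks *
          Set.ncard {a : G | ∃ g : G, ∃ z ∈ ((↑(K ⊔ Ks) : Set G) \ ((K : Set G) ∪ ↑Ks)),
            a = g * z * g⁻¹} =
        (Nat.card K * Nat.card Ks - Nat.card K - Nat.card Ks + 1) * Nat.card G ∧
      Nat.card G < 2 *
        Set.ncard {a : G | ∃ g : G, ∃ z ∈ ((↑(K ⊔ Ks) : Set G) \ ((K : Set G) ∪ ↑Ks)),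
          a = g * z * g⁻¹} := by
  have hKc : IsCyclic K := hKU.cyclic
  have hKH : IsPiHallOf (kappa M) K M := hKU.hall
  have hKM : K ≤ M := hKH.1
  have hUM : U ≤ M := hKU.compl.1
  obtain ⟨hKcomm, hcomm0, hcop0, hZM0⟩ := Cfsg.Agent.Lib.Helper20.BG.sigmaDecomp_facts hKU
  rw [← hKs] at hcomm0 hcop0 hZM0
  have hKsσ : Ks ≤ sigmaCore M := by rw [hKs]; exact inf_le_left
  have hKsM : Ks ≤ M := hKsσ.trans (Cfsg.Agent.Lib.Helper67.BG.sigmaCore_le M)
  have hσn : M ≤ Subgroup.normalizer (sigmaCore M : Set G) :=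
    Cfsg.Agent.Lib.Helper67.BG.sigmaCore_normalizer M
  -- S1354 for M
  obtain ⟨hKs1, h54⟩ := h1354 M hM K hKc hKH
  rw [← hKs] at hKs1 h54
  have h54 := h54 hK1
  -- S1430 for M
  obtain ⟨h30a, -, h30c⟩ := h1430 M hM K hKH hK1
  rw [← hKs] at h30a h30c
  -- S1431 for M
  obtain ⟨h31a, -, -, h31d⟩ := h1431 M hM K hKH hK1
  rw [← hKs] at h31a h31d
  -- the partner: `K*` cyclic, S1354 for `M*`
  have hKsc : IsCyclic Ks := (h1351 Mstar hMstar).2 Ks hKstH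
  obtain ⟨-, h54s⟩ := h1354 Mstar hMstar Ks hKsc hKstH
  rw [← hKst] at h54s
  have h54s := h54s hKs1
  have hKscomm : ∀ a ∈ Ks, ∀ b ∈ Ks, a * b = b * a :=
    Cfsg.Agent.Lib.Helper20.BG.comm_of_isCyclic hKsc
  have hZab : ∀ a ∈ K ⊔ Ks, ∀ b ∈ K ⊔ Ks, a * b = b * a := sup_comm75 hKcomm hKscomm hcomm0
  have hKσs : K ≤ sigmaCore Mstar := by rw [hKst]; exact inf_le_left
  have hordK : ∀ x ∈ K, orderOf x ∣ Nat.card K := by
    intro x hx
    have := orderOf_dvd_natCard (⟨x, hx⟩ : K)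
    rwa [Subgroup.orderOf_mk] at this
  have hordKs : ∀ y ∈ Ks, orderOf y ∣ Nat.card Ks := by
    intro y hy
    have := orderOf_dvd_natCard (⟨y, hy⟩ : Ks)
    rwa [Subgroup.orderOf_mk] at this
  have hcopo : ∀ x ∈ K, ∀ y ∈ Ks, (orderOf x).Coprime (orderOf y) := fun x hx y hy =>
    Nat.Coprime.coprime_dvd_left (hordK x hx) (Nat.Coprime.coprime_dvd_right (hordKs y hy) hcop0)
  -- (3c)
  have hcent : ∀ x ∈ K, x ≠ 1 → ∀ y ∈ Ks, y ≠ 1 →
      Subgroup.centralizer ({x * y} : Set G) = K ⊔ Ks := by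
    intro x hx hx1 y hy hy1
    have hxy : Commute x y := hcomm0 x hx y hy
    have hxz := Cfsg.Agent.Lib.Helper27.BG.mem_zpowers_mul_of_coprime hxy (hcopo x hx y hy)
    have hyz := Cfsg.Agent.Lib.Helper27.BG.mem_zpowers_mul_of_coprime' hxy (hcopo x hx y hy)
    apply le_antisymm
    · intro c hc
      have h0 : (x * y) * c = c * (x * y) := (Subgroup.mem_centralizer_iff.mp hc) _ rfl
      have hcz : ∀ w ∈ Subgroup.zpowers (x * y), w * c = c * w := by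
        intro w hw
        obtain ⟨n, rfl⟩ := Subgroup.mem_zpowers_iff.mp hw
        exact (Commute.zpow_left (show Commute (x * y) c from h0) n).eq
      have hcx : x * c = c * x := hcz x hxz
      have hcy : y * c = c * y := hcz y hyz
      have hCy : Subgroup.centralizer ({y} : Set G) ≤ M := by
        have hxMC : x ∈ M ⊓ Subgroup.centralizer ({y} : Set G) := by
          refine ⟨hKM hx, Subgroup.mem_centralizer_iff.mpr ?_⟩
          intro w hw
          rw [Set.mem_singleton_iff.mp hw]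
          exact hxy.eq.symm
        have hσx : ∀ p : ℕ, p.Prime → p ∣ orderOf x → p ∉ sigma M := by
          intro p hp hdvd
          exact (hKH.2.1 p hp (hdvd.trans (hordK x hx))).2.2.1
        rcases h1432 M hM y (hKsσ hy) hy1 x hxMC hx1 hσx with ⟨-, h⟩ | ⟨h, -⟩
        · exact h
        · exfalso
          have hne : orderOf x ≠ 1 := by rwa [Ne, orderOf_eq_one_iff]
          obtain ⟨p, hp, hdvd⟩ := Nat.exists_prime_and_dvd hne
          exact Cfsg.Agent.Lib.Helper67.BG.not_mem_kappa_of_mem_tau2 (h p hp hdvd)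
            (hKH.2.1 p hp (hdvd.trans (hordK x hx)))
      have hcM : c ∈ M := by
        apply hCy
        refine Subgroup.mem_centralizer_iff.mpr ?_
        intro w hw
        rw [Set.mem_singleton_iff.mp hw]
        exact hcy
      have hcMC : c ∈ M ⊓ Subgroup.centralizer ({x} : Set G) := by
        refine ⟨hcM, Subgroup.mem_centralizer_iff.mpr ?_⟩
        intro w hw
        rw [Set.mem_singleton_iff.mp hw]
        exact hcx
      rw [h54 x hx hx1] at hcMC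
      exact hcMC
    · intro c hc
      refine Subgroup.mem_centralizer_iff.mpr ?_
      intro w hw
      rw [Set.mem_singleton_iff.mp hw]
      exact hZab _ (Subgroup.mul_mem _ (Subgroup.mem_sup_left hx) (Subgroup.mem_sup_right hy)) c hc
  -- (4)
  have h4 : ∀ g : G, g ∉ M → ∀ z ∈ ((↑(K ⊔ Ks) : Set G) \ ((K : Set G) ∪ ↑Ks)),
      z ∉ M.map (MulAut.conj g).toMonoidHom := by
    intro g hg z hz hzM
    obtain ⟨x, hx, hx1, y, hy, hy1, rfl⟩ := Cfsg.Agent.Lib.Helper20.BG.zHat_decomp hcomm0 hz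
    have hxy : Commute x y := hcomm0 x hx y hy
    have hyz := Cfsg.Agent.Lib.Helper27.BG.mem_zpowers_mul_of_coprime' hxy (hcopo x hx y hy)
    have hyMg : y ∈ M.map (MulAut.conj g).toMonoidHom := (Subgroup.zpowers_le.mpr hzM) hyz
    have : y ∈ Ks ⊓ M.map (MulAut.conj g).toMonoidHom := ⟨hy, hyMg⟩
    rw [h31a g hg, Subgroup.mem_bot] at this
    exact hy1 this
  -- decomposition `M = (U M_σ) K`
  have hdec : ∀ m ∈ M, ∃ a ∈ U ⊔ sigmaCore M, ∃ b ∈ K, m = a * b := by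
    intro m hm
    obtain ⟨u, hu, c, hc, rfl⟩ := hKU.compl.2.2.2 m hm
    obtain ⟨k, hk, s, hs, rfl⟩ := Cfsg.Agent.Lib.Helper20.mem_sup_of_le_normalizer K
      (sigmaCore M) (hKM.trans hσn) c hc
    have hs' : k * s * k⁻¹ ∈ sigmaCore M := (Subgroup.mem_normalizer_iff.mp (hσn (hKM hk)) _).mp hs
    refine ⟨u * (k * s * k⁻¹), Subgroup.mul_mem _ (Subgroup.mem_sup_left hu)
      (Subgroup.mem_sup_right hs'), k, hk, ?_⟩
    group
  have hNn : M ≤ Subgroup.normalizer ((U ⊔ sigmaCore M : Subgroup G) : Set G) :=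
    (h1352 M hM K hKc hKH).2 U hKU
  have hUσdvd : Nat.card (U ⊔ sigmaCore M : Subgroup G) ∣ Nat.card U * Nat.card (sigmaCore M) :=
    Cfsg.Agent.Lib.Helper27.BG.card_sup_dvd_mul (hUM.trans hσn)
  -- (1)
  have h1 : kappa M = tau1 M := by
    ext p
    constructor
    · intro hκ
      obtain ⟨hp, hpM, hpσ, -⟩ := id hκ
      refine ⟨hp, hpσ, hpM, ?_, Cfsg.Agent.Lib.Helper85.BG.pRankLE_one_of_mem_kappa hκ⟩
      intro hdvd
      have hder : ⁅M, M⁆ ≤ U ⊔ sigmaCore M := commutator_le_of_mul75 hKM hdec hNn hKcomm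
      have h2 : p ∣ Nat.card (U ⊔ sigmaCore M : Subgroup G) :=
        hdvd.trans (Subgroup.card_dvd_of_le hder)
      rcases (Nat.Prime.dvd_mul hp).mp (h2.trans hUσdvd) with h4' | h4'
      · apply hKH.2.2 p hp hκ
        have hUK : U ⊓ K = ⊥ := by
          rw [eq_bot_iff, ← hKU.compl.2.2.1]
          exact le_inf inf_le_left (inf_le_right.trans le_sup_left)
        have hcW : Nat.card (U ⊔ K : Subgroup G) = Nat.card U * Nat.card K :=
          Cfsg.Agent.Lib.Helper32.card_sup_of_le_normalizer hKU.normal hUK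
        have hKW : K ≤ U ⊔ K := le_sup_right
        have hWM : U ⊔ K ≤ M := sup_le hUM hKM
        have e1 := Subgroup.relIndex_mul_relIndex K (U ⊔ K) M hKW hWM
        have e2 := Subgroup.relIndex_mul_relIndex (⊥ : Subgroup G) K (U ⊔ K) bot_le hKW
        rw [Subgroup.relIndex_bot_left, Subgroup.relIndex_bot_left, hcW, mul_comm] at e2
        have e3 : K.relIndex (U ⊔ K) = Nat.card U :=
          Nat.eq_of_mul_eq_mul_right Nat.card_pos e2
        rw [← e1, e3]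
        exact Dvd.dvd.mul_right h4' _
      · exact hpσ (Cfsg.Agent.Lib.Helper67.BG.sigmaCore_isPi M p hp h4')
    · intro hτ
      obtain ⟨hp, hpσ, hpM, hpd, -⟩ := hτ
      have hMle : M ≤ (U ⊔ sigmaCore M) ⊔ K := by
        intro m hm
        obtain ⟨a, ha, b, hb, rfl⟩ := hdec m hm
        exact Subgroup.mul_mem _ (Subgroup.mem_sup_left ha) (Subgroup.mem_sup_right hb)
      have h2 : p ∣ Nat.card ((U ⊔ sigmaCore M) ⊔ K : Subgroup G) :=
        hpM.trans (Subgroup.card_dvd_of_le hMle)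
      have h3 : Nat.card ((U ⊔ sigmaCore M) ⊔ K : Subgroup G) ∣
          Nat.card (U ⊔ sigmaCore M : Subgroup G) * Nat.card K := by
        rw [sup_comm, mul_comm]
        exact Cfsg.Agent.Lib.Helper27.BG.card_sup_dvd_mul (hKM.trans hNn)
      rcases (Nat.Prime.dvd_mul hp).mp (h2.trans h3) with h4' | h4'
      · exfalso
        rcases (Nat.Prime.dvd_mul hp).mp (h4'.trans hUσdvd) with h5 | h5
        · obtain ⟨k, hk1⟩ := Subgroup.ne_bot_iff_exists_ne_one.mp hK1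
          have hkG : (k : G) ≠ 1 := fun h => hk1 (Subtype.ext h)
          have hUder : U ≤ ⁅M, M⁆ := le_commutator_of_fpf75 hUM (hKM k.2) (hKU.normal k.2)
            (h1353 M hM K U hKU k k.2 hkG)
          exact hpd (h5.trans (Subgroup.card_dvd_of_le hUder))
        · exact hpσ (Cfsg.Agent.Lib.Helper67.BG.sigmaCore_isPi M p hp h5)
      · exact hKH.2.1 p hp h4'
  -- `M_σ ∩ M*_σ = 1`
  have hT : sigmaCore M ⊓ sigmaCore Mstar = ⊥ := by
    by_contra hne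
    have hcard : Nat.card (sigmaCore M ⊓ sigmaCore Mstar : Subgroup G) ≠ 1 :=
      fun h => hne (Subgroup.eq_bot_of_card_eq _ h)
    obtain ⟨q, hq, hqd⟩ := Nat.exists_prime_and_dvd hcard
    have hq1 : q ∈ sigma M := Cfsg.Agent.Lib.Helper67.BG.sigmaCore_isPi M q hq
      (hqd.trans (Subgroup.card_dvd_of_le inf_le_left))
    have hq2 : q ∈ sigma Mstar := Cfsg.Agent.Lib.Helper67.BG.sigmaCore_isPi Mstar q hq
      (hqd.trans (Subgroup.card_dvd_of_le inf_le_right))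
    obtain ⟨g, hg⟩ := h1378.2 M Mstar hM hMstar ⟨q, hq1, hq2⟩
    have hσeq : sigma Mstar = sigma M := by
      rw [hg]; exact Cfsg.Agent.Lib.Helper27.BG.sigma_map_conj M g
    have hKcard : Nat.card K ≠ 1 := fun h => hK1 (Subgroup.eq_bot_of_card_eq _ h)
    obtain ⟨p, hp, hpd⟩ := Nat.exists_prime_and_dvd hKcard
    have hp1 : p ∈ sigma Mstar := Cfsg.Agent.Lib.Helper67.BG.sigmaCore_isPi Mstar p hp
      (hpd.trans (Subgroup.card_dvd_of_le hKσs))
    rw [hσeq] at hp1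
    exact (hKH.2.1 p hp hpd).2.2.1 hp1
  -- `M_σ ∩ M* = K*`
  have hA : sigmaCore M ⊓ Mstar ≤ Ks := by
    intro a ha
    obtain ⟨x, hx1⟩ := Subgroup.ne_bot_iff_exists_ne_one.mp hK1
    have hxG : (x : G) ≠ 1 := fun h => hx1 (Subtype.ext h)
    have hc : a * (x : G) * a⁻¹ * (x : G)⁻¹ ∈ sigmaCore M ⊓ sigmaCore Mstar := by
      constructor
      · have h1' : (x : G) * a⁻¹ * (x : G)⁻¹ ∈ sigmaCore M :=
          (Subgroup.mem_normalizer_iff.mp (hσn (hKM x.2)) _).mp ((sigmaCore M).inv_mem ha.1)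
        have e : a * (x : G) * a⁻¹ * (x : G)⁻¹ = a * ((x : G) * a⁻¹ * (x : G)⁻¹) := by group
        rw [e]; exact Subgroup.mul_mem _ ha.1 h1'
      · have h1' : a * (x : G) * a⁻¹ ∈ sigmaCore Mstar :=
          (Subgroup.mem_normalizer_iff.mp
            (Cfsg.Agent.Lib.Helper67.BG.sigmaCore_normalizer Mstar ha.2) _).mp (hKσs x.2)
        exact Subgroup.mul_mem _ h1' (Subgroup.inv_mem _ (hKσs x.2))
    rw [hT, Subgroup.mem_bot] at hc
    have hax : (x : G) * a = a * (x : G) := by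
      calc (x : G) * a = (a * (x : G) * a⁻¹ * (x : G)⁻¹)⁻¹ * (a * (x : G)) := by group
        _ = a * (x : G) := by rw [hc, inv_one, one_mul]
    have hmem : a ∈ sigmaCore M ⊓ Subgroup.centralizer ({(x : G)} : Set G) := by
      refine ⟨ha.1, Subgroup.mem_centralizer_iff.mpr ?_⟩
      intro w hw
      rw [Set.mem_singleton_iff.mp hw]
      exact hax
    rw [h30a x x.2 hxG] at hmem
    exact hmem
  -- (2)
  have h2 : IsPiHallOf (sigma M) Ks Mstar := by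
    have hsolv : Group.IsSolvable Mstar :=
      Cfsg.Agent.Lib.Helper35.BG.isSolvable_of_ne_top hG hMstar.1
    have hKsπ : ∀ p : ℕ, p.Prime → p ∣ Nat.card Ks → p ∈ sigma M := fun p hp hd =>
      Cfsg.Agent.Lib.Helper67.BG.sigmaCore_isPi M p hp (hd.trans (Subgroup.card_dvd_of_le hKsσ))
    obtain ⟨Y, hY, hKsY⟩ := Cfsg.Agent.Lib.Helper67.BG.exists_piHallOf_ge (sigma M) Mstar hsolv Ks
      hKstH.1 hKsπ
    have hYσ : Y ≤ sigmaCore M := h31d Y hY.2.1 (by rw [inf_eq_right.mpr hKsY]; exact hKs1)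
    have hYKs : Y ≤ Ks := fun y hy => hA ⟨hYσ hy, hY.1 hy⟩
    have hYeq : Y = Ks := le_antisymm hYKs hKsY
    rw [← hYeq]; exact hY
  -- (5), (6)
  have hfix : ∀ n ∈ K ⊔ Ks, ∀ z ∈ ((↑(K ⊔ Ks) : Set G) \ ((K : Set G) ∪ ↑Ks)),
      n * z * n⁻¹ = z := by
    intro n hn z hz
    rw [hZab n hn z hz.1, mul_inv_cancel_right]
  have hN : ∀ g : G, ∀ z ∈ ((↑(K ⊔ Ks) : Set G) \ ((K : Set G) ∪ ↑Ks)),
      g * z * g⁻¹ ∈ ((↑(K ⊔ Ks) : Set G) \ ((K : Set G) ∪ ↑Ks)) → g ∈ K ⊔ Ks := by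
    intro g z hz hgz
    obtain ⟨c1, c2⟩ := Cfsg.Agent.Lib.Helper20.BG.conj_sup_of_zHat hcomm0 hcent hz hgz
    have hgK := (Cfsg.Agent.Lib.Helper20.BG.normalizes_of_conj_sup hcomm0 hcop0 c1 c2).1
    by_cases hgM : g ∈ M
    · obtain ⟨X, p, hp, hXp, hXK⟩ := Cfsg.Agent.Lib.Helper27.BG.exists_prime_card_le hK1
      have h3 := (h30c X hXK (by rw [hXp]; exact hp)).2.1
      rw [← h3]; exact ⟨hgM, hgK⟩
    · exfalso
      exact h4 g hgM (g * z * g⁻¹) hgz (Subgroup.mem_map.mpr ⟨z, hZM0 hz.1, rfl⟩)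
  have hcount := card_conj_union75 (K ⊔ Ks) ((↑(K ⊔ Ks) : Set G) \ ((K : Set G) ∪ ↑Ks)) hfix hN
  have hKKs : K ⊓ Ks = ⊥ := by
    rw [eq_bot_iff]; intro w hw
    exact Subgroup.mem_bot.mpr (Cfsg.Agent.Lib.Helper20.BG.inf_eq_bot_of_coprime hcop0 hw.1 hw.2)
  have hKsN : Ks ≤ Subgroup.normalizer (K : Set G) := by
    rw [hKs]; exact inf_le_right.trans (Subgroup.centralizer_le_normalizer _)
  have hcardZ : Nat.card (K ⊔ Ks : Subgroup G) = Nat.card K * Nat.card Ks :=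
    Cfsg.Agent.Lib.Helper32.card_sup_of_le_normalizer hKsN hKKs
  have hZhat : Set.ncard ((↑(K ⊔ Ks) : Set G) \ ((K : Set G) ∪ ↑Ks)) + Nat.card K + Nat.card Ks =
      Nat.card K * Nat.card Ks + 1 := by
    have hsub : ((K : Set G) ∪ ↑Ks) ⊆ (↑(K ⊔ Ks) : Set G) :=
      Set.union_subset (fun w hw => Subgroup.mem_sup_left hw) (fun w hw => Subgroup.mem_sup_right hw)
    have e1 := Set.ncard_sdiff_add_ncard_of_subset hsub
    have e2 := Set.ncard_union_add_ncard_inter (K : Set G) (Ks : Set G)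
    have e3 : ((K : Set G) ∩ ↑Ks) = {1} := by
      ext w; constructor
      · rintro ⟨h, h'⟩
        exact Cfsg.Agent.Lib.Helper20.BG.inf_eq_bot_of_coprime hcop0 h h'
      · intro h
        rw [Set.mem_singleton_iff.mp h]
        exact ⟨K.one_mem, Ks.one_mem⟩
    rw [e3, Set.ncard_singleton] at e2
    have e4 : (↑(K ⊔ Ks) : Set G).ncard = Nat.card K * Nat.card Ks := by
      rw [← hcardZ]; exact (Nat.card_coe_set_eq _).symm
    have e5 : (K : Set G).ncard = Nat.card K := (Nat.card_coe_set_eq _).symm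
    have e6 : (Ks : Set G).ncard = Nat.card Ks := (Nat.card_coe_set_eq _).symm
    rw [e4] at e1
    rw [e5, e6] at e2
    omega
  have hoddK : Odd (Nat.card K) := Cfsg.Agent.Lib.Helper35.BG.odd_card_subgroup hG K
  have hoddKs : Odd (Nat.card Ks) := Cfsg.Agent.Lib.Helper35.BG.odd_card_subgroup hG Ks
  have hK2 : 1 < Nat.card K := by
    have h0 : Nat.card K ≠ 1 := fun h => hK1 (Subgroup.eq_bot_of_card_eq _ h)
    have h0' : 0 < Nat.card K := Nat.card_pos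
    omega
  have hKs2 : 1 < Nat.card Ks := by
    have h0 : Nat.card Ks ≠ 1 := fun h => hKs1 (Subgroup.eq_bot_of_card_eq _ h)
    have h0' : 0 < Nat.card Ks := Nat.card_pos
    omega
  have hsum : Nat.card K + Nat.card Ks ≤ Nat.card K * Nat.card Ks := by nlinarith
  have hZh : Set.ncard ((↑(K ⊔ Ks) : Set G) \ ((K : Set G) ∪ ↑Ks)) =
      Nat.card K * Nat.card Ks - Nat.card K - Nat.card Ks + 1 := by omega
  have h5 : Nat.card K * Nat.card Ks *
      Set.ncard {a : G | ∃ g : G, ∃ z ∈ ((↑(K ⊔ Ks) : Set G) \ ((K : Set G) ∪ ↑Ks)),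
        a = g * z * g⁻¹} =
      (Nat.card K * Nat.card Ks - Nat.card K - Nat.card Ks + 1) * Nat.card G := by
    rw [hZh, hcardZ] at hcount
    exact hcount
  refine ⟨h1, h2, ?_, h4, h5, ?_⟩
  · intro x hx hx1 y hy hy1
    refine ⟨h54 x hx hx1, ?_, hcent x hx hx1 y hy hy1⟩
    rw [h54s y hy hy1, sup_comm]
  · have ha := arith75 (Nat.card K) (Nat.card Ks) hoddK hoddKs hK2 hKs2 hcop0
    have hGpos : 0 < Nat.card G := Nat.card_pos
    by_contra hlt
    have hlt := not_lt.mp hlt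
    have h6 : Nat.card K * Nat.card Ks * (2 *
        Set.ncard {a : G | ∃ g : G, ∃ z ∈ ((↑(K ⊔ Ks) : Set G) \ ((K : Set G) ∪ ↑Ks)),
          a = g * z * g⁻¹}) ≤ Nat.card K * Nat.card Ks * Nat.card G :=
      Nat.mul_le_mul_left _ hlt
    have h7 : 2 * ((Nat.card K * Nat.card Ks - Nat.card K - Nat.card Ks + 1) * Nat.card G) ≤
        Nat.card K * Nat.card Ks * Nat.card G := by
      rw [← h5]
      calc 2 * (Nat.card K * Nat.card Ks *
            Set.ncard {a : G | ∃ g : G, ∃ z ∈ ((↑(K ⊔ Ks) : Set G) \ ((K : Set G) ∪ ↑Ks)),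
              a = g * z * g⁻¹})
          = Nat.card K * Nat.card Ks * (2 *
            Set.ncard {a : G | ∃ g : G, ∃ z ∈ ((↑(K ⊔ Ks) : Set G) \ ((K : Set G) ∪ ↑Ks)),
              a = g * z * g⁻¹}) := by ring
        _ ≤ _ := h6
    have h8 : 2 * (Nat.card K * Nat.card Ks - Nat.card K - Nat.card Ks + 1) * Nat.card G ≤
        Nat.card K * Nat.card Ks * Nat.card G := by rw [mul_assoc]; exact h7
    have h9 := Nat.le_of_mul_le_mul_right h8 hGpos
    omega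

/-- **S1434** (B–G 14.7 (a)–(e) for a given partner `M*`), conditional on the statements S1351–S1354,
S1378, S1430–S1432 for the same group. -/
theorem s1434_core {G : Type u} [Group G] [Finite G] (hG : Cfsg.IsMinSimpleOddOrder G)
    (h1351 : type_of% (@Cfsg.CfsgFrozen.S1351 G _ _ hG))
    (h1352 : type_of% (@Cfsg.CfsgFrozen.S1352 G _ _ hG))
    (h1353 : type_of% (@Cfsg.CfsgFrozen.S1353 G _ _ hG))
    (h1354 : type_of% (@Cfsg.CfsgFrozen.S1354 G _ _ hG))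
    (h1378 : type_of% (@Cfsg.CfsgFrozen.S1378 G _ _ hG))
    (h1430 : type_of% (@Cfsg.CfsgFrozen.S1430 G _ _ hG))
    (h1431 : type_of% (@Cfsg.CfsgFrozen.S1431 G _ _ hG))
    (h1432 : type_of% (@Cfsg.CfsgFrozen.S1432 G _ _ hG)) :
    type_of% (@Cfsg.CfsgFrozen.S1434 G _ _ hG) := by
  intro M hM K U hKU hK1 Mstar hMstar hKst hKstH
  exact s1434_aux hG h1351 h1352 h1353 h1354 h1378 h1430 h1431 h1432 M hM K U hKU hK1 Mstar hMstar
    _ rfl hKst hKstH

end Cfsg.Agent.Lib.Helper75.BG
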